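import Cfsg.Agent.LBalance.TwoComponent

/-!
A maximal component centralizes, as a component, every involution of its cocentralizer.
-/

set_option autoImplicit false
set_option maxHeartbeats 1000000

open Cfsg

namespace CfsgLib.LBalance

open CfsgLib.Cores
open scoped Pointwise

/-- A quasisimple group with two commuting distinct involutions modulo nothing has even order. -/
theorem two_dvd_of_not_rankLE {G : Type*} [Group G] [Finite G] (h : ¬ PRankLE 2 1 G) :
    2 ∣ Nat.card G := by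
  simp only [PRankLE, not_forall, not_le] at h
  obtain ⟨A, -, hA2, hA⟩ := h
  obtain ⟨x, hx⟩ : ∃ x : ↥A, x ≠ 1 := by
    by_contra! hall
    have : Nat.card ↥A = 1 := Nat.card_eq_one_iff_unique.mpr
      ⟨⟨fun u v => (hall u).trans (hall v).symm⟩, ⟨1⟩⟩
    omega
  refine dvd_trans ?_ (Subgroup.card_subgroup_dvd_card A)
  rw [← orderOf_eq_prime (p := 2) (x := x) (Subtype.ext (by simpa using hA2 x x.2)) hx]
  exact orderOf_dvd_natCard x

theorem maximal_component_cocentralizer {G : Type*} [Group G] [Finite G] (hO : oddCore G = ⊥)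
    (hB : HasBProperty G) (a : G) (ha : orderOf a = 2) (K : Subgroup G)
    (hKa : K ≤ Subgroup.centralizer ({a} : Set G))
    (hK : IsComponent (K.subgroupOf (Subgroup.centralizer ({a} : Set G))))
    (hmax : ∀ y : G, orderOf y = 2 → ∀ K' : Subgroup G, K' ≤ Subgroup.centralizer ({y} : Set G) →
      IsComponent (K'.subgroupOf (Subgroup.centralizer ({y} : Set G))) →
      Nat.card ↥K' ≤ Nat.card ↥K ∧ (Nat.card ↥K' = Nat.card ↥K → ∀ k : ℕ,
        PRankLE 2 k ↥(Subgroup.centralizer ({a} : Set G) ⊓ Subgroup.centralizer (K : Set G)) →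
        PRankLE 2 k ↥(Subgroup.centralizer ({y} : Set G) ⊓ Subgroup.centralizer (K' : Set G))))
    (hrk : ¬ PRankLE 2 1 ↥K) (B : Subgroup G)
    (hBle : B ≤ Subgroup.centralizer ({a} : Set G) ⊓ Subgroup.centralizer (K : Set G))
    (hBel : IsElementaryAbelian 2 B)
    (hBmax : ∀ B' : Subgroup G, B' ≤ Subgroup.centralizer ({a} : Set G) ⊓ Subgroup.centralizer (K : Set G) →
      IsElementaryAbelian 2 B' → Nat.card ↥B' ≤ Nat.card ↥B)
    (b : G) (hb : b ∈ B) (hb1 : b ≠ 1) :
    K ≤ Subgroup.centralizer ({b} : Set G) ∧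
      IsComponent (K.subgroupOf (Subgroup.centralizer ({b} : Set G))) := by
  haveI : Fact (Nat.Prime 2) := ⟨Nat.prime_two⟩
  set C := Subgroup.centralizer ({b} : Set G) with hC
  have hKC : K ≤ C := fun k hk => Subgroup.mem_centralizer_singleton_iff.mpr ((hBle hb).2 k hk)
  refine ⟨hKC, ?_⟩
  have hb2 : orderOf b = 2 := orderOf_eq_prime (by simpa using hBel.2 b hb) hb1
  have haC : a ∈ C := Subgroup.mem_centralizer_singleton_iff.mpr
    (Subgroup.mem_centralizer_singleton_iff.mp (hBle hb).1).symm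
  set aY : ↥C := ⟨a, haC⟩ with haY
  have haa : aY * aY = 1 := Subtype.ext (by
    show a * a = 1
    rw [← sq, ← ha, pow_orderOf_eq_one])
  set R := Subgroup.zpowers aY with hRdef
  have hR : IsPGroup 2 ↥R := IsPGroup.of_card (n := 1) (by
    rw [Nat.card_zpowers, haY, Subgroup.orderOf_mk, ha, pow_one])
  set CR := Subgroup.centralizer (R : Set ↥C) with hCR
  have hCReq : CR = Subgroup.centralizer ({aY} : Set ↥C) := by
    refine le_antisymm (Subgroup.centralizer_le fun x hx => by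
      rw [Set.mem_singleton_iff] at hx; rw [hx]; exact Subgroup.mem_zpowers aY) fun x hx y hy => ?_
    obtain ⟨n, rfl⟩ := hy
    exact ((show Commute x aY from Subgroup.mem_centralizer_singleton_iff.mp hx).zpow_right n).eq.symm
  set KY := K.subgroupOf C with hKY
  have hKR : KY ≤ CR := by
    rw [hCReq]
    intro k hk
    exact Subgroup.mem_centralizer_singleton_iff.mpr
      (Subtype.ext (Subgroup.mem_centralizer_singleton_iff.mp (hKa (Subgroup.mem_subgroupOf.mp hk))))
  have hKq : IsQuasisimple ↥K := isQuasisimple_congr (Subgroup.subgroupOfEquivOfLe hKa) hK.2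
  let ι : ↥CR →* ↥(Subgroup.centralizer ({a} : Set G)) :=
    (C.subtype.comp CR.subtype).codRestrict _ fun x => Subgroup.mem_centralizer_singleton_iff.mpr
      (congrArg Subtype.val (Subgroup.mem_centralizer_singleton_iff.mp (hCReq.le x.2)))
  have hKYc : IsComponent (KY.subgroupOf CR) := by
    refine ⟨?_, isQuasisimple_congr ((Subgroup.subgroupOfEquivOfLe hKC).symm.trans
      (Subgroup.subgroupOfEquivOfLe hKR).symm) hKq⟩
    have h : KY.subgroupOf CR = (K.subgroupOf (Subgroup.centralizer ({a} : Set G))).comap ι := rfl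
    rw [h]
    exact hK.1.comap ι
  have h2K : 2 ∣ Nat.card ↥(KY.subgroupOf CR) := by
    rw [Nat.card_congr (Subgroup.subgroupOfEquivOfLe hKR).toEquiv,
      Nat.card_congr (Subgroup.subgroupOfEquivOfLe hKC).toEquiv]
    exact two_dvd_of_not_rankLE hrk
  have hBC : ⁅pLayer 2 ↥C, oddCore ↥C⁆ = ⊥ :=
    Subgroup.map_injective C.subtype_injective (by
      rw [Subgroup.map_bot, eq_bot_iff]
      exact (hB b hb2).trans (le_of_eq hO))
  have hKE : KY ≤ layer ↥C := (le_pLayer_two_of_isPComponent_centralizer hR hKR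
    (isPComponent_of_isComponent hKYc h2K)).trans (pLayer_two_le_layer hBC)
  have hKa' : KY ≤ Subgroup.centralizer ({aY} : Set ↥C) := hCReq ▸ hKR
  have hKYc' : IsComponent (KY.subgroupOf (Subgroup.centralizer ({aY} : Set ↥C))) := hCReq ▸ hKYc
  obtain ⟨D, hD, hcase⟩ := exists_component_of_le_layer haa hKE hKa' hKYc'
  have hcomp : ∀ D : Subgroup ↥C, IsComponent D → Nat.card ↥D ≤ Nat.card ↥K ∧
      (Nat.card ↥D = Nat.card ↥K → ∀ k : ℕ,
        PRankLE 2 k ↥(Subgroup.centralizer ({a} : Set G) ⊓ Subgroup.centralizer (K : Set G)) →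
        PRankLE 2 k ↥(C ⊓ Subgroup.centralizer ((D.map C.subtype : Subgroup G) : Set G))) := by
    intro D hD
    have e : (D.map C.subtype).subgroupOf C = D := by
      rw [Subgroup.subgroupOf, Subgroup.comap_map_eq_self_of_injective C.subtype_injective]
    have h := hmax b hb2 (D.map C.subtype) (Subgroup.map_subtype_le D) (by rw [← hC, e]; exact hD)
    rw [Subgroup.card_map_of_injective C.subtype_injective] at h
    exact h
  have hcardK : Nat.card ↥KY = Nat.card ↥K := Nat.card_congr (Subgroup.subgroupOfEquivOfLe hKC).toEquiv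
  rcases hcase with hle | ⟨hne, hdiag⟩
  · have heq : KY = D := Subgroup.eq_of_le_of_card_ge hle (hcardK ▸ (hcomp D hD).1)
    exact heq ▸ hD
  exfalso
  set D' := D.map (MulAut.conj aY).toMonoidHom with hD'def
  have hD' : IsComponent D' := isComponent_conj hD aY
  have hcm := commutator_eq_bot_of_ne hD' hD hne
  let φ : ↥D →* ↥C := MonoidHom.mk' (fun d => (d : ↥C) * (aY * (d : ↥C) * aY⁻¹)) fun d e => by
    show ((d : ↥C) * (e : ↥C)) * (aY * ((d : ↥C) * (e : ↥C)) * aY⁻¹) = _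
    have h : (aY * (d : ↥C) * aY⁻¹) * (e : ↥C) = (e : ↥C) * (aY * (d : ↥C) * aY⁻¹) :=
      commute_of_commutator_eq_bot hcm ⟨d, d.2, rfl⟩ e.2
    calc (d : ↥C) * e * (aY * (d * e) * aY⁻¹)
        = d * ((e : ↥C) * (aY * d * aY⁻¹)) * (aY * e * aY⁻¹) := by group
      _ = d * (aY * d * aY⁻¹) * (e * (aY * e * aY⁻¹)) := by rw [← h]; group
  have hKφ : KY ≤ φ.range := fun k hk => by
    obtain ⟨d, hd, e⟩ := hdiag k hk
    exact ⟨⟨d, hd⟩, e.symm⟩
  have h1 : Nat.card ↥φ.range ≤ Nat.card ↥D :=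
    Nat.card_le_card_of_surjective φ.rangeRestrict φ.rangeRestrict_surjective
  have h2 : Nat.card ↥KY ≤ Nat.card ↥φ.range := Subgroup.card_le_of_le hKφ
  have h3 := (hcomp D hD).1
  have hDK : Nat.card ↥D = Nat.card ↥K := by omega
  have hrange : φ.range = KY := (Subgroup.eq_of_le_of_card_ge hKφ (by omega)).symm
  have hinj : Function.Injective φ := by
    have hbij : Function.Bijective φ.rangeRestrict := by
      refine (Nat.bijective_iff_surjective_and_card _).mpr ⟨φ.rangeRestrict_surjective, ?_⟩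
      omega
    intro x y hxy
    exact hbij.1 (Subtype.ext hxy)
  have haa' : aY⁻¹ = aY := inv_eq_of_mul_eq_one_left haa
  have hainvol : ∀ x : ↥C, aY * (aY * x * aY⁻¹) * aY⁻¹ = x := fun x => by
    rw [show aY * (aY * x * aY⁻¹) * aY⁻¹ = aY * aY * x * (aY * aY)⁻¹ by group, haa, one_mul, inv_one, mul_one]
  -- elements of `D ∩ D'` fixed by `a` are trivial
  have hfixed : ∀ z ∈ D', aY * z * aY⁻¹ = z → z * z = 1 → z = 1 := by
    rintro z ⟨d, hd, rfl⟩ hz hzz
    have e1 : aY * d * aY⁻¹ = d := by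
      calc aY * d * aY⁻¹ = aY * (aY * d * aY⁻¹) * aY⁻¹ := hz.symm
        _ = d := hainvol d
    have h : φ ⟨d, hd⟩ = φ 1 := by
      rw [map_one]
      show d * (aY * d * aY⁻¹) = 1
      have hdd : (aY * d * aY⁻¹) * (aY * d * aY⁻¹) = 1 := hzz
      rwa [e1] at hdd ⊢
    have := congrArg Subtype.val (hinj h)
    show aY * d * aY⁻¹ = 1
    rw [show d = 1 from this]; group
  -- the index two subgroup of `B` fixing `D`
  set BY := B.subgroupOf C with hBY
  have hBC' : B ≤ C := fun x hx => Subgroup.mem_centralizer_singleton_iff.mpr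
    (congrArg Subtype.val (hBel.1.is_comm.comm ⟨x, hx⟩ ⟨b, hb⟩))
  have hBcomm : ∀ x ∈ BY, ∀ y ∈ BY, x * y = y * x := fun x hx y hy =>
    Subtype.ext (show (x : G) * y = y * x from
      congrArg Subtype.val (hBel.1.is_comm.comm (⟨(x : G), hx⟩ : ↥B) (⟨(y : G), hy⟩ : ↥B)))
  have hBa : ∀ x ∈ BY, x * aY = aY * x := fun x hx =>
    Subtype.ext (Subgroup.mem_centralizer_singleton_iff.mp (hBle hx).1)
  have hBK : ∀ x ∈ BY, ∀ k ∈ KY, x * k * x⁻¹ = k := fun x hx k hk => by
    rw [mul_inv_eq_iff_eq_mul]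
    exact Subtype.ext ((hBle hx).2 _ hk).symm
  have hperm : ∀ x ∈ BY, D.map (MulAut.conj x).toMonoidHom = D ∨
      D.map (MulAut.conj x).toMonoidHom = D' := by
    intro x hx
    by_contra! hh
    set E := D.map (MulAut.conj x).toMonoidHom with hE
    set E' := D'.map (MulAut.conj x).toMonoidHom with hE'
    have hEc : IsComponent E := isComponent_conj hD x
    -- `K` lies in `D D'`, hence commutes with `E`
    have hKE' : ⁅E, KY⁆ = ⊥ := by
      refine commutator_eq_bot_of_forall_commute fun e he k hk => ?_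
      obtain ⟨d, hd, rfl⟩ := hdiag k hk
      exact ((show Commute e d from commute_of_commutator_eq_bot
        (commutator_eq_bot_of_ne hEc hD hh.1) he hd).mul_right
        (show Commute e (aY * d * aY⁻¹) from commute_of_commutator_eq_bot
          (commutator_eq_bot_of_ne hEc hD' hh.2) he ⟨d, hd, rfl⟩)).eq
    -- conjugating back, `D` centralizes `K`
    have hDK' : ∀ d ∈ D, ∀ k ∈ KY, d * k = k * d := by
      intro d hd k hk
      have h := commute_of_commutator_eq_bot hKE' (show x * d * x⁻¹ ∈ E from ⟨d, hd, rfl⟩) hk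
      have hxk := hBK x hx k hk
      calc d * k = x⁻¹ * ((x * d * x⁻¹) * (x * k * x⁻¹)) * x := by group
        _ = x⁻¹ * ((x * k * x⁻¹) * (x * d * x⁻¹)) * x := by rw [hxk, h]
        _ = k * d := by group
    haveI := hD.2.1
    refine center_ne_top_of_isQuasisimple hD.2 (eq_top_iff.mpr fun d _ => Subgroup.mem_center_iff.mpr fun e => ?_)
    have h := hDK' e e.2 (φ d) (hrange.le ⟨d, rfl⟩)
    have h' : (e : ↥C) * (d * (aY * (d : ↥C) * aY⁻¹)) = (d * (aY * (d : ↥C) * aY⁻¹)) * e := h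
    have hc : (aY * (d : ↥C) * aY⁻¹) * e = e * (aY * (d : ↥C) * aY⁻¹) :=
      commute_of_commutator_eq_bot hcm ⟨d, d.2, rfl⟩ e.2
    refine Subtype.ext (mul_right_cancel (b := aY * (d : ↥C) * aY⁻¹) ?_)
    calc (e : ↥C) * d * (aY * (d : ↥C) * aY⁻¹) = e * (d * (aY * (d : ↥C) * aY⁻¹)) := mul_assoc _ _ _
      _ = d * (aY * (d : ↥C) * aY⁻¹) * e := h'
      _ = d * e * (aY * (d : ↥C) * aY⁻¹) := by rw [mul_assoc (d : ↥C), hc, ← mul_assoc]
  set B0 := BY ⊓ Subgroup.normalizer (D : Set ↥C) with hB0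
  have haconjD' : ∀ x ∈ BY, x ∈ Subgroup.normalizer (D : Set ↥C) → x ∈ Subgroup.normalizer (D' : Set ↥C) := by
    intro x hx hxD
    rw [← cj_eq_iff] at hxD ⊢
    show cj x (cj aY D) = cj aY D
    rw [cj_cj, hBa x hx, ← cj_cj, hxD]
  have hidx : B0.relIndex BY ≤ 2 := by
    by_cases hle : BY ≤ Subgroup.normalizer (D : Set ↥C)
    · rw [hB0, inf_eq_left.mpr hle, Subgroup.relIndex_self]; norm_num
    · obtain ⟨x0, hx0, hx0n⟩ := SetLike.not_le_iff_exists.mp hle
      have hx0' : cj x0 D = D' :=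
        (hperm x0 hx0).resolve_left fun h => hx0n ((cj_eq_iff x0 D).mp h)
      refine le_of_eq (Subgroup.index_eq_two_iff.mpr ⟨⟨x0, hx0⟩, fun y => ?_⟩)
      have hyx : ((y * ⟨x0, hx0⟩ : ↥BY) : ↥C) = (y : ↥C) * x0 := rfl
      by_cases hy : (y : ↥C) ∈ Subgroup.normalizer (D : Set ↥C)
      · right
        refine ⟨⟨y.2, hy⟩, fun h => hx0n ?_⟩
        have := (Subgroup.normalizer (D : Set ↥C)).mul_mem (Subgroup.inv_mem _ hy)
          (show (y : ↥C) * x0 ∈ Subgroup.normalizer (D : Set ↥C) from h.2)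
        rwa [inv_mul_cancel_left] at this
      · left
        refine ⟨⟨BY.mul_mem y.2 hx0, (cj_eq_iff _ D).mp ?_⟩, fun h => hy h.2⟩
        show cj ((y : ↥C) * x0) D = D
        have hy' : cj (y : ↥C) D = D' := (hperm y y.2).resolve_left fun h => hy ((cj_eq_iff _ D).mp h)
        rw [hBcomm y y.2 x0 hx0, ← cj_cj, hy', hD'def]
        show cj x0 (cj aY D) = D
        rw [cj_cj, hBa x0 hx0, ← cj_cj, hx0', hD'def]
        show cj aY (cj aY D) = D
        rw [cj_cj, haa, cj_one]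
  have hB0cent : ∀ x ∈ B0, x ∈ Subgroup.centralizer (D : Set ↥C) := fun x hx => by
    refine conj_eq_of_commute_diag hD hne hx.2 (haconjD' x hx.1 hx.2) fun d hd => ?_
    exact hBK x hx.1 _ (hrange.le ⟨⟨d, hd⟩, rfl⟩)
  have hB0cent' : ∀ x ∈ B0, ∀ d' ∈ D', x * d' = d' * x := by
    rintro x hx _ ⟨d, hd, rfl⟩
    have h1 : x * d = d * x := (hB0cent x hx d hd).symm
    show x * (aY * d * aY⁻¹) = aY * d * aY⁻¹ * x
    rw [haa']
    calc x * (aY * d * aY) = (x * aY) * d * aY := by group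
      _ = aY * (x * d) * aY := by rw [hBa x hx.1]; group
      _ = aY * d * (x * aY) := by rw [h1]; group
      _ = aY * d * aY * x := by rw [hBa x hx.1]; group
  -- an elementary subgroup of `D'` coming from `K`
  simp only [PRankLE, not_forall, not_le] at hrk
  obtain ⟨A, hAc, hA2, hA⟩ := hrk
  let eD : ↥D ≃* ↥K := ((MonoidHom.ofInjective hinj).trans (MulEquiv.subgroupCongr hrange)).trans
    (Subgroup.subgroupOfEquivOfLe hKC)
  let ψ : ↥K →* ↥C := ((MulAut.conj aY).toMonoidHom.comp D.subtype).comp eD.symm.toMonoidHom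
  have hψinj : Function.Injective ψ :=
    (MulAut.conj aY).injective.comp (D.subtype_injective.comp eD.symm.injective)
  set E4 := A.map ψ with hE4
  have hE4D' : ∀ e ∈ E4, e ∈ D' := by
    rintro _ ⟨y, -, rfl⟩
    exact ⟨_, (eD.symm y).2, rfl⟩
  have hE4card : 2 < Nat.card ↥E4 := by
    rw [hE4, Subgroup.card_map_of_injective hψinj]
    omega
  have hB0sq : ∀ x ∈ BY, x ^ 2 = 1 := fun x hx => Subtype.ext (by simpa using hBel.2 (x : G) hx)
  let μ : ↥B0 × ↥E4 →* ↥C := MonoidHom.noncommCoprod B0.subtype E4.subtype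
    fun x e => hB0cent' x x.2 _ (hE4D' e e.2)
  have hμinj : Function.Injective μ := by
    rw [← MonoidHom.ker_eq_bot_iff, eq_bot_iff]
    rintro ⟨x, e⟩ hxe
    have h : (x : ↥C) * e = 1 := hxe
    have hxD' : (x : ↥C) ∈ D' := by
      rw [eq_inv_of_mul_eq_one_left h]; exact D'.inv_mem (hE4D' e e.2)
    have hx1 : (x : ↥C) = 1 := hfixed x hxD'
      (by rw [← hBa x x.2.1, mul_inv_cancel_right]) (by rw [← sq]; exact hB0sq x x.2.1)
    rw [hx1, one_mul] at h
    exact Subgroup.mem_bot.mpr (Prod.ext (Subtype.ext hx1) (Subtype.ext h))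
  set T := μ.range.map C.subtype with hT
  have hTcard : Nat.card ↥T = Nat.card ↥B0 * Nat.card ↥E4 := by
    rw [hT, Subgroup.card_map_of_injective C.subtype_injective, ← Nat.card_prod]
    exact Nat.card_congr (MonoidHom.ofInjective hμinj).toEquiv.symm
  have hBcard : Nat.card ↥B ≤ 2 * Nat.card ↥B0 := by
    have h := Subgroup.card_mul_index (B0.subgroupOf BY)
    rw [Nat.card_congr (Subgroup.subgroupOfEquivOfLe (inf_le_left : B0 ≤ BY)).toEquiv,
      Nat.card_congr (Subgroup.subgroupOfEquivOfLe hBC').toEquiv] at h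
    calc Nat.card ↥B = Nat.card ↥B0 * B0.relIndex BY := h.symm
      _ ≤ Nat.card ↥B0 * 2 := Nat.mul_le_mul_left _ hidx
      _ = 2 * Nat.card ↥B0 := mul_comm _ _
  obtain ⟨r, hr⟩ : ∃ r, Nat.card ↥B = 2 ^ r :=
    IsPGroup.iff_card.mp fun x => ⟨1, Subtype.ext (by simpa using hBel.2 x x.2)⟩
  have hPR : PRankLE 2 r ↥(Subgroup.centralizer ({a} : Set G) ⊓ Subgroup.centralizer (K : Set G)) := by
    intro A' hA'c hA'2
    rw [← Subgroup.card_map_of_injective (f := (Subgroup.centralizer ({a} : Set G) ⊓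
      Subgroup.centralizer (K : Set G)).subtype) (Subgroup.subtype_injective _), ← hr]
    refine hBmax _ (Subgroup.map_subtype_le A') ⟨⟨⟨?_⟩⟩, ?_⟩
    · rintro ⟨_, x, hx, rfl⟩ ⟨_, y, hy, rfl⟩
      refine Subtype.ext ?_
      show (x : G) * y = y * x
      exact congrArg (fun z : ↥A' => ((z : ↥(Subgroup.centralizer ({a} : Set G) ⊓
        Subgroup.centralizer (K : Set G))) : G)) (hA'c.is_comm.comm ⟨x, hx⟩ ⟨y, hy⟩)
    · rintro _ ⟨x, hx, rfl⟩
      simpa using congrArg Subtype.val (hA'2 x hx)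
  have hfin := (hcomp D hD).2 hDK r hPR
  set CD := C ⊓ Subgroup.centralizer ((D.map C.subtype : Subgroup G) : Set G) with hCD
  have hTle : T ≤ CD := by
    rintro _ ⟨_, ⟨⟨x, e⟩, rfl⟩, rfl⟩
    refine ⟨(μ (x, e)).2, ?_⟩
    rintro _ ⟨d, hd, rfl⟩
    refine congrArg Subtype.val (show d * ((x : ↥C) * e) = (x : ↥C) * e * d from ?_)
    exact ((show Commute d (x : ↥C) from hB0cent x x.2 d hd).mul_right
      (show Commute d (e : ↥C) from (commute_of_commutator_eq_bot hcm (hE4D' e e.2) hd).symm)).eq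
  have hcommP : ∀ u v : ↥B0 × ↥E4, u * v = v * u := by
    rintro ⟨x, e⟩ ⟨x', e'⟩
    refine Prod.ext (Subtype.ext (hBcomm x x.2.1 x' x'.2.1)) (Subtype.ext ?_)
    obtain ⟨y, hy, hye⟩ := e.2
    obtain ⟨y', hy', hye'⟩ := e'.2
    show (e : ↥C) * e' = e' * e
    rw [← hye, ← hye', ← map_mul, ← map_mul]
    exact congrArg ψ (congrArg Subtype.val (hAc.is_comm.comm ⟨y, hy⟩ ⟨y', hy'⟩))
  have hsqP : ∀ u : ↥B0 × ↥E4, u ^ 2 = 1 := by
    rintro ⟨x, e⟩
    refine Prod.ext (Subtype.ext (by simpa using hB0sq x x.2.1)) (Subtype.ext ?_)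
    obtain ⟨y, hy, hye⟩ := e.2
    show (e : ↥C) ^ 2 = 1
    rw [← hye, ← map_pow, hA2 y hy, map_one]
  have hle := hfin (T.subgroupOf CD) ⟨⟨?_⟩⟩ ?_
  · rw [Nat.card_congr (Subgroup.subgroupOfEquivOfLe hTle).toEquiv, hTcard, ← hr] at hle
    have hp : 0 < Nat.card ↥B0 := Nat.card_pos
    nlinarith
  · rintro ⟨z, hz⟩ ⟨w, hw⟩
    obtain ⟨_, ⟨u, rfl⟩, hu⟩ := Subgroup.mem_map.mp (Subgroup.mem_subgroupOf.mp hz)
    obtain ⟨_, ⟨v, rfl⟩, hv⟩ := Subgroup.mem_map.mp (Subgroup.mem_subgroupOf.mp hw)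
    refine Subtype.ext (Subtype.ext ?_)
    show (z : G) * (w : G) = (w : G) * (z : G)
    rw [← hu, ← hv, ← map_mul, ← map_mul, ← map_mul, ← map_mul, hcommP]
  · intro z hz
    obtain ⟨_, ⟨u, rfl⟩, hu⟩ := Subgroup.mem_map.mp (Subgroup.mem_subgroupOf.mp hz)
    refine Subtype.ext ?_
    show (z : G) ^ 2 = (1 : G)
    rw [← hu, ← map_pow, ← map_pow, hsqP, map_one, map_one]

end CfsgLib.LBalance
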