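import Cfsg.Agent.LBalance.TwoBalance
import Cfsg.Agent.Balance.ExtendedLayer

/-!
Core balance at the prime 2 with no hypothesis on composition factors.
-/

set_option autoImplicit false
set_option maxHeartbeats 2000000

open Cfsg

namespace CfsgLib.LBalance

open CfsgLib.Cores
open scoped commutatorElement Pointwise

variable {Q : Type*} [Group Q] [Finite Q]

/-- Replace `g` by an element of odd order in the same coset of `N`. -/
theorem exists_odd_part (N : Subgroup Q) [N.Normal] {g o : Q} (ho : (orderOf o).Coprime 2)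
    (hgo : g * o⁻¹ ∈ N) :
    ∃ k : ℕ, (orderOf (g ^ k)).Coprime 2 ∧ g ^ k * o⁻¹ ∈ N := by
  set π := QuotientGroup.mk' N with hπ
  have hπg : π g = π o := by
    have h : π (g * o⁻¹) = 1 := (QuotientGroup.eq_one_iff _).mpr hgo
    rwa [map_mul, map_inv, mul_inv_eq_one] at h
  set a := (orderOf g).factorization 2 with ha
  have hcop : (2 ^ a).Coprime (orderOf (π g)) := by
    rw [hπg]
    exact (Nat.Coprime.coprime_dvd_left (orderOf_map_dvd π o) ho).symm.pow_left a
  obtain ⟨j, hj⟩ := exists_pow_eq_self_of_coprime (x := π g) (n := 2 ^ a) hcop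
  refine ⟨2 ^ a * j, ?_, ?_⟩
  · have hm : (orderOf (g ^ 2 ^ a)).Coprime 2 := by
      rw [orderOf_pow, Nat.gcd_eq_right (Nat.ordProj_dvd _ 2)]
      exact (Nat.coprime_ordCompl Nat.prime_two (orderOf_pos g).ne').symm
    rw [pow_mul]
    exact Nat.Coprime.coprime_dvd_left (orderOf_pow_dvd j) hm
  · refine (QuotientGroup.eq_one_iff _).mp ?_
    show π (g ^ (2 ^ a * j) * o⁻¹) = 1
    rw [pow_mul, map_mul, map_pow, map_pow, hj, map_inv, hπg, mul_inv_cancel]

theorem odd_relIndex_sup {A P : Subgroup Q} (hPA : P ≤ Subgroup.normalizer (A : Set Q))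
    (hA : ¬ 2 ∣ Nat.card ↥A) : ¬ 2 ∣ P.relIndex (A ⊔ P) := by
  intro hd
  set H := A ⊔ P with hH
  have hsub : (Nat.card ↥P) * P.relIndex H = Nat.card ↥H := by
    have h := Subgroup.card_mul_index (P.subgroupOf H)
    rwa [Nat.card_congr (Subgroup.subgroupOfEquivOfLe (le_sup_right : P ≤ H)).toEquiv] at h
  have hcard : Nat.card ↥H ∣ Nat.card ↥A * Nat.card ↥P := by
    have hn : (A.subgroupOf H).Normal :=
      (Subgroup.normal_subgroupOf_iff_le_normalizer le_sup_left).mpr
        (sup_le Subgroup.le_normalizer hPA)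
    have h1 := Subgroup.card_mul_index (A.subgroupOf H)
    rw [Nat.card_congr (Subgroup.subgroupOfEquivOfLe (le_sup_left : A ≤ H)).toEquiv] at h1
    rw [← h1]
    refine Nat.mul_dvd_mul_left _ ?_
    have h2 : (A.subgroupOf H).relIndex (P.subgroupOf H) ∣ Nat.card ↥(P.subgroupOf H) :=
      Subgroup.index_dvd_card _
    rw [Nat.card_congr (Subgroup.subgroupOfEquivOfLe (le_sup_right : P ≤ H)).toEquiv,
      ← Subgroup.relIndex_sup_left] at h2
    rwa [← Subgroup.subgroupOf_sup le_sup_left le_sup_right, Subgroup.subgroupOf_self,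
      Subgroup.relIndex_top_right] at h2
  rw [← hsub, mul_comm (Nat.card ↥A)] at hcard
  exact hA (hd.trans (Nat.dvd_of_mul_dvd_mul_left Nat.card_pos hcard))

/-- An element of odd order stabilizing a central 2-step is trivial on it. -/
theorem commute_of_odd_stab {g x z : Q} (hg : g * x * g⁻¹ = z * x) (hgz : g * z = z * g)
    (hodd : (orderOf g).Coprime 2) (hz : ∃ k : ℕ, z ^ 2 ^ k = 1) : g * x = x * g := by
  have hpow : ∀ n : ℕ, g ^ n * x * (g ^ n)⁻¹ = z ^ n * x := by
    intro n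
    induction n with
    | zero => simp
    | succ n ih =>
      calc g ^ (n + 1) * x * (g ^ (n + 1))⁻¹ = g * (g ^ n * x * (g ^ n)⁻¹) * g⁻¹ := by
            rw [pow_succ']; group
        _ = g * z ^ n * x * g⁻¹ := by rw [ih]; group
        _ = z ^ n * (g * x * g⁻¹) := by rw [((show Commute g z from hgz).pow_right n).eq]; group
        _ = z ^ (n + 1) * x := by rw [hg, pow_succ]; group
  have h1 := hpow (orderOf g)
  rw [pow_orderOf_eq_one, one_mul, inv_one, mul_one, right_eq_mul, ← orderOf_dvd_iff_pow_eq_one] at h1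
  obtain ⟨k, hk⟩ := hz
  have h2 : orderOf z = 1 := Nat.Coprime.eq_one_of_dvd (Nat.Coprime.coprime_dvd_left
    (orderOf_dvd_of_pow_eq_one hk) (hodd.symm.pow_left k)) h1
  rw [orderOf_eq_one_iff] at h2
  rw [h2, one_mul, mul_inv_eq_iff_eq_mul] at hg
  exact hg

/-- An odd element of `O(bigCent R)` is, modulo `E`, an odd element centralizing a Sylow of `E`. -/
theorem exists_odd_cover {R : Subgroup Q} (hR : IsPGroup 2 ↥R) {o : Q}
    (ho : o ∈ (pPrimeCore 2 ↥(bigCent 2 R)).map (bigCent 2 R).subtype) :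
    ∃ S2 g : _, IsPGroup 2 ↥(S2 : Subgroup Q) ∧ S2 ≤ layer Q ∧
      Nat.card ↥S2 = 2 ^ (Nat.card ↥(layer Q)).factorization 2 ∧
      g ∈ Subgroup.centralizer (S2 : Set Q) ⊓ Subgroup.centralizer (pCore 2 Q : Set Q) ∧
      (orderOf g).Coprime 2 ∧ g * o⁻¹ ∈ layer Q := by
  haveI : Fact (Nat.Prime 2) := ⟨Nat.prime_two⟩
  set T := bigCent 2 R with hTdef
  set O := (pPrimeCore 2 ↥T).map T.subtype with hOdef
  set E := layer Q with hE
  haveI hEn : E.Normal := inferInstance
  have hOT : O ≤ T := Subgroup.map_subtype_le _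
  have hOodd : ¬ 2 ∣ Nat.card ↥O := bigCore_not_dvd R
  have hOconj : ∀ t ∈ T, ∀ o ∈ O, t * o * t⁻¹ ∈ O := by
    rintro t ht _ ⟨o, ho, rfl⟩
    exact ⟨⟨t, ht⟩ * o * ⟨t, ht⟩⁻¹, (inferInstance : (pPrimeCore 2 ↥T).Normal).conj_mem o ho _, rfl⟩
  have hOcop : ∀ o ∈ O, (orderOf o).Coprime 2 := fun o ho =>
    (Nat.Coprime.coprime_dvd_left (O.orderOf_dvd_natCard ho)
      (((Nat.Prime.coprime_iff_not_dvd Nat.prime_two).mpr hOodd).symm))
  suffices key : ∃ S2 : Subgroup Q, IsPGroup 2 ↥S2 ∧ S2 ≤ E ∧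
      Nat.card ↥S2 = 2 ^ (Nat.card ↥E).factorization 2 ∧ R ≤ Subgroup.normalizer (S2 : Set Q) ∧
      ∃ g ∈ T ⊓ Subgroup.centralizer ((R ⊔ S2 : Subgroup Q) : Set Q),
        (orderOf g).Coprime 2 ∧ g * o⁻¹ ∈ E by
    obtain ⟨S2, h1, h2, h3, -, g, hg, hg2, hgo⟩ := key
    exact ⟨S2, g, h1, h2, h3, ⟨fun x hx => hg.2 x (Subgroup.mem_sup_right hx), hg.1.1⟩, hg2, hgo⟩
  refine exists_climb hR (fun X => ∃ g ∈ T ⊓ Subgroup.centralizer (X : Set Q),
    (orderOf g).Coprime 2 ∧ g * o⁻¹ ∈ E) ?_ ?_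
  · intro Q0 hQ0p hQ0TE hRQ0
    set A := O ⊓ E with hA
    have hQA : Q0 ≤ Subgroup.normalizer (A : Set Q) := by
      intro x hx
      refine Subgroup.mem_normalizer_iff.mpr fun a => ⟨fun ha =>
        ⟨hOconj x (hQ0TE hx).1 a ha.1, hEn.conj_mem a ha.2 x⟩, fun ha => ⟨?_, ?_⟩⟩
      · simpa [mul_assoc] using hOconj x⁻¹ (T.inv_mem (hQ0TE hx).1) _ ha.1
      · simpa [mul_assoc] using hEn.conj_mem _ ha.2 x⁻¹
    have hAodd : ¬ 2 ∣ Nat.card ↥A := fun h => hOodd (h.trans (Subgroup.card_dvd_of_le inf_le_left))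
    have hcm : ∀ x ∈ Q0, o * x * o⁻¹ * x⁻¹ ∈ A := fun x hx => by
      refine ⟨?_, E.mul_mem (hEn.conj_mem x (hQ0TE hx).2 o) (E.inv_mem (hQ0TE hx).2)⟩
      rw [mul_assoc o x, mul_assoc]
      refine O.mul_mem ho ?_
      simpa [mul_assoc] using hOconj x (hQ0TE hx).1 _ (O.inv_mem ho)
    obtain ⟨h, hh, hn⟩ := exists_back (le_sup_right : Q0 ≤ A ⊔ Q0) hQ0p (odd_relIndex_sup hQA hAodd)
      (g := o) (fun x hx => by
        rw [show o * x * o⁻¹ = o * x * o⁻¹ * x⁻¹ * x by group]
        exact (A ⊔ Q0).mul_mem (Subgroup.mem_sup_left (hcm x hx)) (Subgroup.mem_sup_right hx))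
    rw [sup_comm, ← SetLike.mem_coe, Subgroup.coe_mul_of_left_le_normalizer_right Q0 A hQA] at hh
    obtain ⟨q, hq, a, ha, rfl⟩ := hh
    have hn' : a * o ∈ Subgroup.normalizer (Q0 : Set Q) := by
      have := Subgroup.mul_mem _ (Subgroup.inv_mem _ (Subgroup.le_normalizer (H := Q0) hq)) hn
      rwa [← mul_assoc, inv_mul_cancel_left] at this
    have haoO : a * o ∈ O := O.mul_mem ha.1 ho
    have hfix : ∀ x ∈ Q0, a * o * x = x * (a * o) := by
      intro x hx
      set c := a * o * x * (a * o)⁻¹ * x⁻¹ with hc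
      have h1 : c ∈ O := by
        rw [hc, mul_assoc (a * o) x, mul_assoc]
        refine O.mul_mem haoO ?_
        simpa [mul_assoc] using hOconj x (hQ0TE hx).1 _ (O.inv_mem haoO)
      have h2 : c ∈ Q0 := Q0.mul_mem ((Subgroup.mem_normalizer_iff.mp hn' x).mp hx) (Q0.inv_mem hx)
      have h3 : c = 1 := (Subgroup.mem_bot).mp
        ((Constrained.disjoint_of_isPGroup_of_not_dvd hQ0p hOodd).le ⟨h2, h1⟩)
      rw [hc, mul_inv_eq_one, mul_inv_eq_iff_eq_mul] at h3
      exact h3
    refine ⟨a * o, ⟨hOT haoO, ?_⟩, hOcop _ haoO, by rw [mul_inv_cancel_right]; exact ha.2⟩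
    have hle : R ⊔ Q0 ≤ Subgroup.centralizer ({a * o} : Set Q) := sup_le
      (fun r hr => Subgroup.mem_centralizer_singleton_iff.mpr
        (commute_of_mem_bigCent hR (hOT haoO) (hOcop _ haoO) hr).symm)
      fun x hx => Subgroup.mem_centralizer_singleton_iff.mpr (hfix x hx).symm
    exact fun x hx => Subgroup.mem_centralizer_singleton_iff.mp (hle hx)
  · rintro X X' hX ⟨g, hg, hgodd, hgo⟩
    obtain ⟨c, hc, hcg⟩ := hX.split g hg
    have hcgo : c * g * o⁻¹ ∈ E := by rw [mul_assoc]; exact E.mul_mem hc.1 hgo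
    obtain ⟨k, hk, hko⟩ := exists_odd_part E (hOcop o ho) hcgo
    set g' := (c * g) ^ k with hg'
    have hmem : g' ∈ T ⊓ Subgroup.centralizer (X : Set Q) ⊓ Subgroup.normalizer (X' : Set Q) :=
      Subgroup.pow_mem _ hcg k
    refine ⟨g', ⟨hmem.1.1, fun x hx => ?_⟩, hk, hko⟩
    set z := g' * x * g'⁻¹ * x⁻¹ with hz
    have hzmem : z ∈ E ⊓ Subgroup.centralizer (X : Set Q) ⊓ X' :=
      ⟨hX.move g' hmem.1 x hx, X'.mul_mem ((Subgroup.mem_normalizer_iff.mp hmem.2 x).mp hx) (X'.inv_mem hx)⟩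
    have hgz : g' * z = z * g' := (hmem.1.2 z (hX.fixed z hzmem)).symm
    obtain ⟨j, hj⟩ := hX.isPGroup ⟨z, hzmem.2⟩
    exact (commute_of_odd_stab (z := z) (by rw [hz]; group) hgz hk ⟨j, congrArg Subtype.val hj⟩).symm

/-- In the centralizer of a Sylow of the layer and of `O_2`, elements of odd order lie in the core. -/
theorem mem_core_of_odd (hcore : pPrimeCore 2 Q = ⊥) {S2 : Subgroup Q} (hS2E : S2 ≤ layer Q)
    (hS2card : Nat.card ↥S2 = 2 ^ (Nat.card ↥(layer Q)).factorization 2)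
    {g : Q} (hg : g ∈ Subgroup.centralizer (S2 : Set Q) ⊓ Subgroup.centralizer (pCore 2 Q : Set Q))
    (hodd : (orderOf g).Coprime 2) :
    (⟨g, hg⟩ : ↥(Subgroup.centralizer (S2 : Set Q) ⊓ Subgroup.centralizer (pCore 2 Q : Set Q))) ∈
      pPrimeCore 2 ↥(Subgroup.centralizer (S2 : Set Q) ⊓ Subgroup.centralizer (pCore 2 Q : Set Q)) := by
  haveI : Fact (Nat.Prime 2) := ⟨Nat.prime_two⟩
  set U := Subgroup.centralizer (S2 : Set Q) ⊓ Subgroup.centralizer (pCore 2 Q : Set Q) with hU
  let PE : Sylow 2 ↥(layer Q) := Sylow.ofCard (S2.subgroupOf (layer Q))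
    (by rw [Nat.card_congr (Subgroup.subgroupOfEquivOfLe hS2E).toEquiv, hS2card])
  -- the commutators of `U` with 2-power order lie in `O_2`
  have hW : ∀ a ∈ commutator ↥U, (∃ k : ℕ, (a : Q) ^ 2 ^ k = 1) → (a : Q) ∈ pCore 2 Q := by
    rintro a ha ⟨k, hk⟩
    refine (fun h => LocalBalance.fitting_le_pCore hcore (centralizer_generalizedFitting_le_fitting h))
      (show (a : Q) ∈ Subgroup.centralizer (generalizedFittingSubgroup Q : Set Q) from ?_)
    have h : generalizedFittingSubgroup Q ≤ Subgroup.centralizer ({(a : Q)} : Set Q) := by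
      refine sup_le (sSup_le fun J hJ => ?_) (fun w hw => Subgroup.mem_centralizer_singleton_iff.mpr
        (a.2.2 w (LocalBalance.fitting_le_pCore hcore hw)))
      haveI hJn : (J.subgroupOf (layer Q)).Normal := component_normal_in_layer hJ
      obtain ⟨PJ, hPJ⟩ := LocalCharP.exists_sylow_inf PE hJn
      have hJE : J ≤ layer Q := le_layer hJ
      haveI hJs : IsSimpleGroup (↥J ⧸ Subgroup.center ↥J) := hJ.2.2
      haveI : Group.IsPerfect ↥J := hJ.2.1
      haveI : Group.IsPerfect (↥J ⧸ Subgroup.center ↥J) :=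
        Group.IsPerfect.ofSurjective (QuotientGroup.mk'_surjective _)
      set JQ := ↥J ⧸ Subgroup.center ↥J with hJQ
      have hdvd : 2 ∣ Nat.card JQ := LocalBalance.dvd_index_center hcore hJ
      haveI : Nontrivial JQ := IsSimpleGroup.toNontrivial
      have hcore' : pPrimeCore 2 JQ = ⊥ := by
        rcases (inferInstance : (pPrimeCore 2 JQ).Normal).eq_bot_or_eq_top with h | h
        · exact h
        · have h2 := Constrained.pPrimeCore_not_dvd (G := JQ) (p := 2)
          rw [h, Subgroup.card_top] at h2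
          exact absurd hdvd h2
      have hcent : Subgroup.center JQ = ⊥ := by
        rcases (inferInstance : (Subgroup.center JQ).Normal).eq_bot_or_eq_top with h | h
        · exact h
        · exfalso
          letI : CommGroup JQ := { mul_comm := fun a b =>
            (Subgroup.mem_center_iff.mp (h ▸ Subgroup.mem_top b : b ∈ Subgroup.center JQ) a) }
          exact Group.IsPerfect.not_isSolvable JQ inferInstance
      let PJ' : Sylow 2 ↥J := PJ.mapSurjective
        (f := (Subgroup.subgroupOfEquivOfLe hJE).toMonoidHom) (MulEquiv.surjective _)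
      let SJ : Sylow 2 JQ := PJ'.mapSurjective (QuotientGroup.mk'_surjective (Subgroup.center ↥J))
      have hSJmem : ∀ s ∈ (SJ : Subgroup JQ), ∃ j : ↥J, (j : Q) ∈ S2 ∧ QuotientGroup.mk' _ j = s := by
        intro s hs
        obtain ⟨j, hj, rfl⟩ := Subgroup.mem_map.mp
          (show s ∈ Subgroup.map (QuotientGroup.mk' (Subgroup.center ↥J)) (PJ' : Subgroup ↥J) from hs)
        obtain ⟨e, he, rfl⟩ := Subgroup.mem_map.mp
          (show j ∈ Subgroup.map (Subgroup.subgroupOfEquivOfLe hJE).toMonoidHom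
            (PJ : Subgroup ↥(J.subgroupOf (layer Q))) from hj)
        exact ⟨_, Subgroup.mem_subgroupOf.mp (hPJ.le (Subgroup.mem_map_of_mem _ he)).1, rfl⟩
      have hUN : U ≤ Subgroup.normalizer (J : Set Q) := by
        intro u hu
        by_contra hne
        have h2 : 2 ∣ Nat.card ↥(SJ : Subgroup JQ) := by
          obtain ⟨x, hx⟩ := exists_prime_orderOf_dvd_card' 2 hdvd
          obtain ⟨P, hP⟩ := (IsPGroup.of_card (n := 1)
            (show Nat.card ↥(Subgroup.zpowers x) = 2 ^ 1 by rw [Nat.card_zpowers, hx, pow_one])).exists_le_sylow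
          rw [SJ.card_eq_multiplicity, ← P.card_eq_multiplicity]
          exact hx.symm.dvd.trans ((P : Subgroup JQ).orderOf_dvd_natCard (hP (Subgroup.mem_zpowers x)))
        obtain ⟨⟨s, hs⟩, hs2⟩ := exists_prime_orderOf_dvd_card' 2 h2
        obtain ⟨j, hjS, rfl⟩ := hSJmem s hs
        have hne' : cj u J ≠ J := fun h => hne ((cj_eq_iff u J).mp h)
        have hcm := commutator_eq_bot_of_ne (isComponent_conj hJ u) hJ hne'
        have hju : u * (j : Q) * u⁻¹ = (j : Q) := by rw [← hu.1 _ hjS, mul_inv_cancel_right]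
        have hjc : j ∈ Subgroup.center ↥J := by
          refine Subgroup.mem_center_iff.mpr fun b => Subtype.ext ?_
          exact (commute_of_commutator_eq_bot hcm (show (j : Q) ∈ cj u J from ⟨j, j.2, hju⟩) b.2).symm
        rw [Subgroup.orderOf_mk, show QuotientGroup.mk' (Subgroup.center ↥J) j = 1 from
          (QuotientGroup.eq_one_iff _).mpr hjc, orderOf_one] at hs2
        norm_num at hs2
      let ρ : ↥U →* MulAut JQ :=
        ((autModCenter ↥J).comp (LocalBalance.act J)).comp (Subgroup.inclusion hUN)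
      have hfix : ∀ (u : ↥U), ∀ s ∈ (SJ : Subgroup JQ), ρ u s = s := by
        intro u s hs
        obtain ⟨j, hjS, rfl⟩ := hSJmem s hs
        show QuotientGroup.mk' _ (LocalBalance.act J _ _) = _
        refine congrArg _ (Subtype.ext ?_)
        show (u : Q) * (j : Q) * (u : Q)⁻¹ = (j : Q)
        rw [← u.2.1 _ hjS, mul_inv_cancel_right]
      have hρa : ρ a = 1 := by
        by_contra hne
        have hd : orderOf (ρ a) ∣ 2 ^ k := orderOf_dvd_of_pow_eq_one (by
          rw [← map_pow, show a ^ 2 ^ k = 1 from Subtype.ext (by simpa using hk), map_one])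
        obtain ⟨i, -, hi⟩ := (Nat.dvd_prime_pow Nat.prime_two).mp hd
        rcases i with _ | i
        · exact hne (orderOf_eq_one_iff.mp (by rw [hi, pow_zero]))
        · refine SylowFix.orderOf_ne_two hcore' hcent SJ ρ hfix
            ((commutator ↥U).pow_mem ha (2 ^ i)) ?_
          rw [map_pow, orderOf_pow, hi, Nat.gcd_eq_right (pow_dvd_pow 2 (Nat.le_succ i)),
            Nat.pow_div (Nat.le_succ i) (by norm_num)]
          simp
      have hact : LocalBalance.act J (Subgroup.inclusion hUN a) = 1 := by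
        refine LocalBalance.commute_of_commute_mod_center _ fun b => ?_
        rw [← QuotientGroup.eq_one_iff]
        have h := DFunLike.congr_fun hρa (QuotientGroup.mk' (Subgroup.center ↥J) b)
        change QuotientGroup.mk' (Subgroup.center ↥J) (LocalBalance.act J (Subgroup.inclusion hUN a) b) =
          QuotientGroup.mk' (Subgroup.center ↥J) b at h
        show QuotientGroup.mk' (Subgroup.center ↥J) (LocalBalance.act J (Subgroup.inclusion hUN a) b * b⁻¹) = 1
        rw [map_mul, map_inv, h, mul_inv_cancel]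
      intro l hl
      exact Subgroup.mem_centralizer_singleton_iff.mpr
        ((LocalBalance.act_eq_one_iff J _).mp hact l hl).symm
    exact fun y hy => Subgroup.mem_centralizer_singleton_iff.mp (h hy)
  -- split `⁅U, U⁆`
  set D := (commutator ↥U).map U.subtype with hD
  set Z := D ⊓ pCore 2 Q with hZ
  have hcardD : 2 ^ (Nat.card ↥D).factorization 2 ∣ Nat.card ↥Z := by
    obtain ⟨P⟩ : Nonempty (Sylow 2 ↥D) := inferInstance
    rw [← P.card_eq_multiplicity, Nat.card_congr ((P : Subgroup ↥D).equivMapOfInjective _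
      (Subgroup.subtype_injective _)).toEquiv]
    refine Subgroup.card_dvd_of_le (le_inf (Subgroup.map_subtype_le _) ?_)
    rintro _ ⟨⟨_, a, ha, rfl⟩, hxP, rfl⟩
    obtain ⟨k, hk⟩ := P.isPGroup' ⟨_, hxP⟩
    exact hW a ha ⟨k, by simpa using congrArg (fun y : ↥(P : Subgroup ↥D) => ((y : ↥D) : Q)) hk⟩
  have hDU : D ≤ U := Subgroup.map_subtype_le _
  have hsplit := fun e (he : e ∈ D) => SylowFix.exists_split (C := D) (Z := Z) inf_le_left
    (fun z hz x hx => ((hDU hx).2 z hz.2).symm) (Constrained.isPGroup_pCore.to_le inf_le_right) hcardD he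
  set O1 := pPrimeCore 2 ↥U with hO1
  have hDcore : ((pPrimeCore 2 ↥D).map (Subgroup.inclusion hDU)) ≤ O1 := by
    refine Constrained.le_pPrimeCore_of_not_dvd ?_ ?_
    · refine ⟨fun x hx u => ?_⟩
      obtain ⟨d, hd, rfl⟩ := Subgroup.mem_map.mp hx
      have hn : D ≤ Subgroup.normalizer (D : Set Q) := Subgroup.le_normalizer
      have hDn : D.map (MulAut.conj (u : Q)).toMonoidHom = D := by
        have h1 : (commutator ↥U).map (MulAut.conj u).toMonoidHom = commutator ↥U :=
          Subgroup.characteristic_iff_map_eq.mp inferInstance _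
        conv_rhs => rw [hD, ← h1]
        rw [hD, Subgroup.map_map, Subgroup.map_map]
        rfl
      obtain ⟨h1, h2⟩ := SylowFix.apply_mem_core (MulAut.conj (u : Q)) hDn hd
      exact ⟨⟨_, h1⟩, h2, Subtype.ext rfl⟩
    · exact fun h => Constrained.pPrimeCore_not_dvd (h.trans (Subgroup.card_map_dvd _ _))
  set π := QuotientGroup.mk' O1 with hπ
  set gU : ↥U := ⟨g, hg⟩ with hgU
  have hgc : ∀ u : ↥U, π gU * π u = π u * π gU := by
    intro u
    obtain ⟨z, hz, k, hk, hzk⟩ := hsplit ((⁅gU, u⁆ : ↥U) : Q)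
      ⟨_, Subgroup.commutator_mem_commutator (Subgroup.mem_top _) (Subgroup.mem_top _), rfl⟩
    have hzU : z ∈ U := hDU hz.1
    have e : (⁅gU, u⁆ : ↥U) = ⟨z, hzU⟩ * Subgroup.inclusion hDU k := Subtype.ext hzk
    have hπz : π ⁅gU, u⁆ = π ⟨z, hzU⟩ := by
      rw [e, map_mul, show π (Subgroup.inclusion hDU k) = 1 from
        (QuotientGroup.eq_one_iff _).mpr (hDcore ⟨k, hk, rfl⟩), mul_one]
    obtain ⟨j, hj⟩ := Constrained.isPGroup_pCore (p := 2) ⟨z, hz.2⟩
    refine commute_of_odd_stab (g := π gU) (x := π u) (z := π ⟨z, hzU⟩) ?_ ?_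
      (Nat.Coprime.coprime_dvd_left (orderOf_map_dvd π gU) (by rwa [hgU, Subgroup.orderOf_mk]))
      ⟨j, by rw [← map_pow, show (⟨z, hzU⟩ : ↥U) ^ 2 ^ j = 1 from
        Subtype.ext (by simpa using congrArg Subtype.val hj), map_one]⟩
    · rw [← hπz, map_commutatorElement, commutatorElement_def]; group
    · rw [← map_mul, ← map_mul]
      exact congrArg π (Subtype.ext (hg.2 z hz.2).symm)
  haveI hcyc : (Subgroup.zpowers (π gU)).Normal := by
    refine ⟨fun x hx y => ?_⟩
    obtain ⟨n, rfl⟩ := hx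
    obtain ⟨u, rfl⟩ := QuotientGroup.mk'_surjective O1 y
    show π u * π gU ^ n * (π u)⁻¹ ∈ _
    rw [← ((show Commute (π gU) (π u) from hgc u).zpow_left n).eq, mul_inv_cancel_right]
    exact zpow_mem (Subgroup.mem_zpowers _) n
  have hle : Subgroup.zpowers (π gU) ≤ pPrimeCore 2 (↥U ⧸ O1) :=
    Constrained.le_pPrimeCore_of_not_dvd hcyc (by
      rw [Nat.card_zpowers]
      exact (Nat.Prime.coprime_iff_not_dvd Nat.prime_two).mp
        (Nat.Coprime.coprime_dvd_left (orderOf_map_dvd π gU) (by rwa [hgU, Subgroup.orderOf_mk])).symm)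
  have hle' : Subgroup.zpowers (π gU) ≤ ⊥ :=
    hle.trans (le_of_eq (Constrained.pPrimeCore_quotient_pPrimeCore (G := ↥U) (p := 2)))
  exact (QuotientGroup.eq_one_iff gU).mp (Subgroup.mem_bot.mp (hle' (Subgroup.mem_zpowers _)))

/-- `O(C(R))` lies in `O(bigCent R)`. -/
theorem mem_bigCore_of_mem_pPrimeCore_centralizer {p : ℕ} [Fact p.Prime] (hcore : pPrimeCore p Q = ⊥)
    {R : Subgroup Q} (hR : IsPGroup p ↥R) {d : ↥(Subgroup.centralizer (R : Set Q))}
    (hd : d ∈ pPrimeCore p ↥(Subgroup.centralizer (R : Set Q))) :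
    (d : Q) ∈ (pPrimeCore p ↥(bigCent p R)).map (bigCent p R).subtype := by
  have hdC : (d : Q) ∈ smallCent p R :=
    ⟨d.2, fun w hw => ((of_mem_pPrimeCore_centralizer hcore hR hd).1 w hw).symm⟩
  have h1 : (⟨(d : Q), hdC⟩ : ↥(smallCent p R)) ∈ pPrimeCore p ↥(smallCent p R) :=
    Constrained.le_pPrimeCore_of_not_dvd
      ((pPrimeCore_normal p _).comap (Subgroup.inclusion (inf_le_left : smallCent p R ≤ _)))
      (fun h => Constrained.pPrimeCore_not_dvd
        (h.trans (Subgroup.card_comap_dvd_of_injective _ _ (Subgroup.inclusion_injective _))))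
      hd
  set ι := Subgroup.inclusion (smallCent_le_bigCent (p := p) R) with hι
  have hsn : ((pPrimeCore p ↥(smallCent p R)).map ι).IsSubnormal := by
    have hr : ι.range.IsSubnormal := by
      rw [hι, Subgroup.inclusion_range]
      exact (smallCent_normal R).isSubnormal
    have h2 := ((inferInstance : (pPrimeCore p ↥(smallCent p R)).Normal).isSubnormal.map
      ι.rangeRestrict_surjective).trans' hr
    rwa [Subgroup.map_map, MonoidHom.subtype_comp_rangeRestrict] at h2
  have hp' : ¬ p ∣ Nat.card ↥((pPrimeCore p ↥(smallCent p R)).map ι) := fun h =>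
    Constrained.pPrimeCore_not_dvd (h.trans (Subgroup.card_map_dvd _ _))
  exact ⟨_, Cores.le_pPrimeCore_of_isSubnormal hsn hp' ⟨_, h1, rfl⟩, rfl⟩

end CfsgLib.LBalance
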