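import Cfsg.Agent.LBalance.TwoCore

/-!
Core balance at the prime 2: `O(C(R))` lies in the extended 2-layer.
-/

set_option autoImplicit false
set_option maxHeartbeats 1000000

open Cfsg

namespace CfsgLib.LBalance

open CfsgLib.Cores
open scoped Pointwise

variable {X : Type*} [Group X] [Finite X]

/-- A Sylow 2-subgroup of the base above a given Sylow 2-subgroup of its image. -/
theorem exists_baseSylow_map_eq {P : Subgroup (X ⧸ pPrimeCore 2 X)}
    (hP : P ≤ (Balance.layerBase X).map (QuotientGroup.mk' (pPrimeCore 2 X))) (hPp : IsPGroup 2 ↥P)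
    (hPs : ∀ P' : Subgroup (X ⧸ pPrimeCore 2 X), IsPGroup 2 ↥P' →
      P' ≤ (Balance.layerBase X).map (QuotientGroup.mk' (pPrimeCore 2 X)) → P ≤ P' → P' = P) :
    ∃ T : Sylow 2 ↥(Balance.layerBase X),
      (Balance.baseSylow T).map (QuotientGroup.mk' (pPrimeCore 2 X)) = P := by
  haveI : Fact (Nat.Prime 2) := ⟨Nat.prime_two⟩
  set π := QuotientGroup.mk' (pPrimeCore 2 X) with hπ
  set B := Balance.layerBase X with hB
  obtain ⟨T0⟩ : Nonempty (Sylow 2 ↥B) := inferInstance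
  let T1 : Sylow 2 ↥(B.map π) := T0.mapSurjective (f := π.subgroupMap B) (π.subgroupMap_surjective B)
  obtain ⟨b, hb⟩ := CfsgLib.Fus.exists_conj_mem_sylow T1
    (hPp.comap_of_injective (B.map π).subtype (Subgroup.subtype_injective _) :
      IsPGroup 2 ↥(P.subgroupOf (B.map π)))
  obtain ⟨⟨x, hx⟩, hxb⟩ := π.subgroupMap_surjective B b
  refine ⟨(⟨x, hx⟩ : ↥B)⁻¹ • T0, ?_⟩
  have hbx : π x = (b : X ⧸ pPrimeCore 2 X) := congrArg Subtype.val hxb
  refine hPs _ ((((⟨x, hx⟩ : ↥B)⁻¹ • T0).isPGroup'.map B.subtype).map π)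
    (Subgroup.map_mono (Subgroup.map_subtype_le _)) ?_
  intro y hy
  obtain ⟨t, ht, hty⟩ := Subgroup.mem_map.mp
    (show (b * ⟨y, hP hy⟩ * b⁻¹ : ↥(B.map π)) ∈ Subgroup.map (π.subgroupMap B) (T0 : Subgroup ↥B) from
      hb ⟨y, hP hy⟩ hy)
  have htv : π (t : X) = (b : X ⧸ pPrimeCore 2 X) * y * (b : X ⧸ pPrimeCore 2 X)⁻¹ :=
    congrArg Subtype.val hty
  refine ⟨x⁻¹ * (t : X) * x, ⟨(⟨x, hx⟩ : ↥B)⁻¹ * t * ⟨x, hx⟩, ?_, rfl⟩, ?_⟩
  · rw [Sylow.coe_subgroup_smul]
    exact ⟨t, ht, by simp [MulAut.conj_apply]⟩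
  · rw [map_mul, map_mul, map_inv, htv, hbx]
    group

theorem pPrimePCore_map : (pPrimePCore 2 X).map (QuotientGroup.mk' (pPrimeCore 2 X)) =
    pCore 2 (X ⧸ pPrimeCore 2 X) := by
  rw [pPrimePCore, Subgroup.map_comap_eq_self_of_surjective (QuotientGroup.mk'_surjective _)]

/-- **Core balance at 2**, unconditional. -/
theorem oddCore_centralizer_le_extendedTwoLayer {R : Subgroup X} (hR : IsPGroup 2 ↥R) :
    (pPrimeCore 2 ↥(Subgroup.centralizer (R : Set X))).map (Subgroup.centralizer (R : Set X)).subtype ≤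
      extendedTwoLayer X := by
  haveI : Fact (Nat.Prime 2) := ⟨Nat.prime_two⟩
  set C := Subgroup.centralizer (R : Set X) with hC
  rintro _ ⟨d, hd, rfl⟩
  set π := QuotientGroup.mk' (pPrimeCore 2 X) with hπ
  have hcore : pPrimeCore 2 (X ⧸ pPrimeCore 2 X) = ⊥ := Constrained.pPrimeCore_quotient_pPrimeCore
  set C' := Subgroup.centralizer ((R.map π : Subgroup (X ⧸ pPrimeCore 2 X)) : Set (X ⧸ pPrimeCore 2 X))
    with hC'
  have himg : C.map π = C' :=
    Constrained.map_centralizer_eq (pPrimeCore 2 X) Constrained.pPrimeCore_not_dvd R hR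
  let f : ↥C →* ↥C' := (π.comp C.subtype).codRestrict C' fun c => himg ▸ ⟨c, c.2, rfl⟩
  have hf : Function.Surjective f := by
    rintro ⟨y, hy⟩
    obtain ⟨c, hc, rfl⟩ := (himg.symm ▸ hy : y ∈ C.map π)
    exact ⟨⟨c, hc⟩, rfl⟩
  have hd' : f d ∈ pPrimeCore 2 ↥C' := Constrained.map_pPrimeCore_le f hf ⟨d, hd, rfl⟩
  obtain ⟨S2, g, hS2p, hS2E, hS2card, hg, hgodd, hgo⟩ :=
    exists_odd_cover (hR.map π) (mem_bigCore_of_mem_pPrimeCore_centralizer hcore (hR.map π) hd')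
  set E := layer (X ⧸ pPrimeCore 2 X) with hE
  set W := pCore 2 (X ⧸ pPrimeCore 2 X) with hW
  have hbase : (Balance.layerBase X).map π = E ⊔ W := by
    rw [Balance.layerBase, Subgroup.map_sup, pPrimePCore_map, hπ, Cores.map_pLayer]
  have hS2W : IsPGroup 2 ↥(S2 ⊔ W) := hS2p.to_sup_of_normal_right Constrained.isPGroup_pCore
  obtain ⟨T, hT⟩ := exists_baseSylow_map_eq (P := S2 ⊔ W)
    (hbase ▸ sup_le_sup_right hS2E W) hS2W (fun P' hP'p hP'B hPP' => le_antisymm (fun y hy => by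
      have hy' := hbase ▸ hP'B hy
      obtain ⟨e, he, w, hw, rfl⟩ := Subgroup.mem_sup_of_normal_right.mp hy'
      have heP : e ∈ P' := by
        have := P'.mul_mem hy (P'.inv_mem (hPP' (Subgroup.mem_sup_right hw)))
        rwa [mul_inv_cancel_right] at this
      have hle : S2 ≤ P' ⊓ E := le_inf (le_sup_left.trans hPP') hS2E
      have heq : S2 = P' ⊓ E := by
        refine Subgroup.eq_of_le_of_card_ge hle ?_
        rw [hS2card]
        exact CfsgLib.Fus.card_le_pPart (hP'p.to_le inf_le_left) inf_le_right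
      exact mul_mem (Subgroup.mem_sup_left (heq ▸ (⟨heP, he⟩ : e ∈ P' ⊓ E))) (Subgroup.mem_sup_right hw))
      hPP')
  set CT := Subgroup.centralizer (Balance.baseSylow T : Set X) with hCT
  set U := Subgroup.centralizer (S2 : Set (X ⧸ pPrimeCore 2 X)) ⊓
    Subgroup.centralizer (W : Set (X ⧸ pPrimeCore 2 X)) with hU
  have himg2 : CT.map π = U := by
    rw [hCT, hπ, Constrained.map_centralizer_eq (pPrimeCore 2 X) Constrained.pPrimeCore_not_dvd
      (Balance.baseSylow T) (T.isPGroup'.map _), hT, hU]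
    refine le_antisymm (le_inf (Subgroup.centralizer_le fun y hy => Subgroup.mem_sup_left hy)
      (Subgroup.centralizer_le fun y hy => Subgroup.mem_sup_right hy)) fun u hu => ?_
    have hle : S2 ⊔ W ≤ Subgroup.centralizer ({u} : Set (X ⧸ pPrimeCore 2 X)) := sup_le
      (fun y hy => Subgroup.mem_centralizer_singleton_iff.mpr (hu.1 y hy))
      fun y hy => Subgroup.mem_centralizer_singleton_iff.mpr (hu.2 y hy)
    exact fun y hy => Subgroup.mem_centralizer_singleton_iff.mp (hle hy)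
  obtain ⟨c, hc, hcg⟩ := (himg2.symm ▸ hg : g ∈ CT.map π)
  let f2 : ↥CT →* ↥U := (π.comp CT.subtype).codRestrict U fun c => himg2 ▸ ⟨c, c.2, rfl⟩
  have hf2 : Function.Surjective f2 := by
    rintro ⟨y, hy⟩
    obtain ⟨c, hc, rfl⟩ := (himg2.symm ▸ hy : y ∈ CT.map π)
    exact ⟨⟨c, hc⟩, rfl⟩
  have hker : ¬ 2 ∣ Nat.card ↥f2.ker := by
    intro h
    refine Constrained.pPrimeCore_not_dvd (G := X) (p := 2) (h.trans ?_)
    rw [← Subgroup.card_map_of_injective (f := CT.subtype) CT.subtype_injective]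
    refine Subgroup.card_dvd_of_le ?_
    rintro _ ⟨y, hy, rfl⟩
    exact (QuotientGroup.eq_one_iff _).mp (congrArg Subtype.val (MonoidHom.mem_ker.mp hy))
  have hcmem : c ∈ Balance.layerTerm T := by
    refine ⟨⟨c, hc⟩, ?_, rfl⟩
    show (⟨c, hc⟩ : ↥CT) ∈ pPrimeCore 2 ↥CT
    rw [pPrimeCore_eq_comap f2 hf2 hker, Subgroup.mem_comap]
    have h := mem_core_of_odd hcore hS2E hS2card hg hgodd
    rwa [show f2 ⟨c, hc⟩ = ⟨g, hg⟩ from Subtype.ext hcg]
  have hgd : (π (d : X)) = (g * (π (d : X))⁻¹)⁻¹ * g := by group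
  have hmem : π (d : X) ∈ (pLayer 2 X ⊔ Balance.layerTerm T).map π := by
    rw [hgd, Subgroup.map_sup, hπ, Cores.map_pLayer]
    exact mul_mem (Subgroup.mem_sup_left (E.inv_mem hgo)) (Subgroup.mem_sup_right ⟨c, hcmem, hcg⟩)
  rw [← Subgroup.mem_comap, Subgroup.comap_map_eq, QuotientGroup.ker_mk'] at hmem
  rw [Balance.extendedTwoLayer_eq_one_term T]
  exact (sup_le (sup_le (le_sup_left.trans le_sup_left) le_sup_right)
    (le_sup_right.trans le_sup_left) : (pLayer 2 X ⊔ Balance.layerTerm T) ⊔ pPrimeCore 2 X ≤ _) hmem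

end CfsgLib.LBalance
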