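import Cfsg.Agent.LBalance.TwoCoreBalance

/-!
Balance of the extended 2-layers of commuting involutions.
-/

set_option autoImplicit false
set_option maxHeartbeats 1000000

open Cfsg

namespace CfsgLib.LBalance

open CfsgLib.Cores
open scoped Pointwise

universe u

/-- The extended 2-layer of a normal subgroup `M` of `C(R)` is in that of the whole group. -/
theorem extendedTwoLayer_le_of_normal {Y : Type u} [Group Y] [Finite Y] {R M : Subgroup Y}
    (hR : IsPGroup 2 ↥R) (hMC : M ≤ Subgroup.centralizer (R : Set Y))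
    (hn : Subgroup.centralizer (R : Set Y) ≤ Subgroup.normalizer (M : Set Y)) :
    (extendedTwoLayer ↥M).map M.subtype ≤ extendedTwoLayer Y := by
  haveI : Fact (Nat.Prime 2) := ⟨Nat.prime_two⟩
  set C := Subgroup.centralizer (R : Set Y) with hC
  have hMn : (M.subgroupOf C).Normal := (Subgroup.normal_subgroupOf_iff_le_normalizer hMC).mpr hn
  rw [Subgroup.map_le_iff_le_comap, Balance.extendedTwoLayer_eq_iSup]
  refine sup_le (sup_le ?_ ?_) (iSup_le fun T => ?_)
  · refine sSup_le fun K hK => ?_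
    rw [← Subgroup.map_le_iff_le_comap]
    refine (le_pLayer_two_of_isPComponent_centralizer hR ((Subgroup.map_subtype_le K).trans hMC) ?_).trans
      (le_sup_left.trans le_sup_left)
    let ι : ↥M →* ↥C := Subgroup.inclusion hMC
    have e : (K.map M.subtype).subgroupOf C = K.map ι := by
      ext c
      rw [Subgroup.mem_subgroupOf]
      exact ⟨fun ⟨m, hm, h⟩ => ⟨m, hm, Subtype.ext h⟩, fun ⟨m, hm, h⟩ => ⟨m, hm, congrArg Subtype.val h⟩⟩
    rw [← hC, e]
    refine isPComponent_of_isBlock ?_ ((isBlock_of_isPComponent hK).of_surjective (ι.subgroupMap K)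
      (ι.subgroupMap_surjective K) ?_)
    · have hr : ι.range.IsSubnormal := by
        rw [Subgroup.inclusion_range]
        exact hMn.isSubnormal
      have h := (hK.1.map ι.rangeRestrict_surjective).trans' hr
      rwa [Subgroup.map_map, MonoidHom.subtype_comp_rangeRestrict] at h
    · rw [(MonoidHom.ker_eq_bot_iff _).mpr, Subgroup.card_bot]
      · exact Nat.prime_two.not_dvd_one
      · intro a b h
        exact Subtype.ext (Subgroup.inclusion_injective hMC (congrArg Subtype.val h))
  · rw [← Subgroup.map_le_iff_le_comap]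
    refine le_trans ?_ (oddCore_centralizer_le_extendedTwoLayer hR)
    rintro _ ⟨m, hm, rfl⟩
    refine ⟨Subgroup.inclusion hMC m, Cores.le_pPrimeCore_of_isSubnormal
      (A := (pPrimeCore 2 ↥M).map (Subgroup.inclusion hMC)) ?_ (fun h =>
        Constrained.pPrimeCore_not_dvd (h.trans (Subgroup.card_map_dvd _ _))) ⟨m, hm, rfl⟩, rfl⟩
    have hr : (Subgroup.inclusion hMC).range.IsSubnormal := by
      rw [Subgroup.inclusion_range]
      exact hMn.isSubnormal
    have h := ((inferInstance : (pPrimeCore 2 ↥M).Normal).isSubnormal.map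
      (Subgroup.inclusion hMC).rangeRestrict_surjective).trans' hr
    rwa [Subgroup.map_map, MonoidHom.subtype_comp_rangeRestrict] at h
  · rw [← Subgroup.map_le_iff_le_comap]
    set T' := (Balance.baseSylow T).map M.subtype with hT'
    set R' := R ⊔ T' with hR'
    have hT'p : IsPGroup 2 ↥T' := (T.isPGroup'.map _).map _
    have hT'C : T' ≤ C := (Subgroup.map_subtype_le _).trans hMC
    have hR'p : IsPGroup 2 ↥R' := hR.to_sup_of_normal_left' hT'p
      (hT'C.trans (Subgroup.centralizer_le_normalizer _))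
    refine le_trans ?_ (oddCore_centralizer_le_extendedTwoLayer hR'p)
    set CT := Subgroup.centralizer (Balance.baseSylow T : Set ↥M) with hCT
    set C' := Subgroup.centralizer (R' : Set Y) with hC'
    have hle : CT.map M.subtype ≤ C' := by
      rintro _ ⟨c, hc, rfl⟩
      have h : R' ≤ Subgroup.centralizer ({(c : Y)} : Set Y) := sup_le
        (fun r hr => Subgroup.mem_centralizer_singleton_iff.mpr (hMC c.2 r hr))
        (by
          rintro _ ⟨t, ht, rfl⟩
          exact Subgroup.mem_centralizer_singleton_iff.mpr (congrArg Subtype.val (hc t ht)))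
      exact fun r hr => Subgroup.mem_centralizer_singleton_iff.mp (h hr)
    let j : ↥CT →* ↥C' := (M.subtype.comp CT.subtype).codRestrict C' fun c => hle ⟨c, c.2, rfl⟩
    have hjn : j.range.Normal := by
      refine ⟨?_⟩
      rintro _ ⟨c, rfl⟩ g
      have hgC : (g : Y) ∈ C := fun r hr => g.2 r (Subgroup.mem_sup_left hr)
      have hm : (g : Y) * ((c : ↥M) : Y) * (g : Y)⁻¹ ∈ M :=
        (Subgroup.mem_normalizer_iff.mp (hn hgC) _).mp (c : ↥M).2
      refine ⟨⟨⟨_, hm⟩, fun t ht => Subtype.ext ?_⟩, Subtype.ext rfl⟩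
      exact (C'.mul_mem (C'.mul_mem g.2 (hle ⟨c, c.2, rfl⟩)) (C'.inv_mem g.2)) _
        (Subgroup.mem_sup_right ⟨t, ht, rfl⟩)
    rintro _ ⟨_, ⟨c, hc, rfl⟩, rfl⟩
    refine ⟨j c, Cores.le_pPrimeCore_of_isSubnormal (A := (oddCore ↥CT).map j) ?_ (fun h =>
      Constrained.pPrimeCore_not_dvd (p := 2) (G := ↥CT) (h.trans (Subgroup.card_map_dvd _ _))) ⟨c, hc, rfl⟩, rfl⟩
    have h := ((inferInstance : (pPrimeCore 2 ↥CT).Normal).isSubnormal.map
      j.rangeRestrict_surjective).trans' hjn.isSubnormal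
    rwa [Subgroup.map_map, MonoidHom.subtype_comp_rangeRestrict] at h

/-- The 2-layer is preserved by isomorphisms. -/
theorem map_pLayer_iso_le {G H : Type u} [Group G] [Group H] [Finite G] [Finite H] (e : G ≃* H) :
    (pLayer 2 G).map e.toMonoidHom ≤ pLayer 2 H := by
  haveI : Fact (Nat.Prime 2) := ⟨Nat.prime_two⟩
  rw [Subgroup.map_le_iff_le_comap]
  refine sSup_le fun K hK => ?_
  rw [← Subgroup.map_le_iff_le_comap]
  refine le_sSup (isPComponent_of_isBlock (hK.1.map e.surjective)
    ((isBlock_of_isPComponent hK).of_surjective (e.toMonoidHom.subgroupMap K)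
      (e.toMonoidHom.subgroupMap_surjective K) ?_))
  rw [(MonoidHom.ker_eq_bot_iff _).mpr, Subgroup.card_bot]
  · exact Nat.prime_two.not_dvd_one
  · intro a b h
    exact Subtype.ext (e.injective (congrArg Subtype.val h))

theorem map_pLayer_iso {G H : Type u} [Group G] [Group H] [Finite G] [Finite H] (e : G ≃* H) :
    (pLayer 2 G).map e.toMonoidHom = pLayer 2 H := by
  refine le_antisymm (map_pLayer_iso_le e) ?_
  rw [← Balance.map_map_symm e (pLayer 2 H)]
  exact Subgroup.map_mono (map_pLayer_iso_le e.symm)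

/-- `extendedTwoLayer` of a subgroup isomorphic copy. -/
theorem map_extendedTwoLayer {G H : Type u} [Group G] [Group H] [Finite G] [Finite H] (e : G ≃* H) :
    (extendedTwoLayer G).map e.toMonoidHom ≤ extendedTwoLayer H := by
  haveI : Fact (Nat.Prime 2) := ⟨Nat.prime_two⟩
  have hbase : (Balance.layerBase G).map e.toMonoidHom = Balance.layerBase H := by
    rw [Balance.layerBase, Subgroup.map_sup, map_pLayer_iso, Constrained.map_pPrimePCore_map]
  rw [Balance.extendedTwoLayer_eq_iSup, Balance.extendedTwoLayer_eq_iSup, Subgroup.map_sup,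
    Subgroup.map_sup, Subgroup.map_iSup, map_pLayer_iso]
  refine sup_le_sup (sup_le_sup le_rfl (Balance.pPrimeCore_map e 2).le) (iSup_le fun T => ?_)
  let eB : ↥(Balance.layerBase G) ≃* ↥(Balance.layerBase H) :=
    (e.subgroupMap _).trans (MulEquiv.subgroupCongr hbase)
  refine le_trans (le_of_eq ?_) (le_iSup _ (T.mapSurjective (f := eB.toMonoidHom) eB.surjective))
  rw [Balance.layerTerm, Balance.layerTerm, Balance.oddCoreIn_map, Balance.centralizer_map]
  congr 3
  show ((T : Subgroup ↥(Balance.layerBase G)).map _).map _ =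
    ((T : Subgroup ↥(Balance.layerBase G)).map eB.toMonoidHom).map _
  rw [Subgroup.map_map, Subgroup.map_map]
  rfl

theorem extendedTwoLayer_meet_le {G : Type u} [Group G] [Finite G] {x y : G} (hx : orderOf x = 2)
    (_hy : orderOf y = 2) (hxy : x * y = y * x) :
    (extendedTwoLayer ↥((extendedTwoLayer ↥(Subgroup.centralizer ({x} : Set G))).map
        (Subgroup.centralizer ({x} : Set G)).subtype ⊓ Subgroup.centralizer ({y} : Set G))).map
      ((extendedTwoLayer ↥(Subgroup.centralizer ({x} : Set G))).map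
        (Subgroup.centralizer ({x} : Set G)).subtype ⊓ Subgroup.centralizer ({y} : Set G)).subtype ≤
      (extendedTwoLayer ↥(Subgroup.centralizer ({y} : Set G))).map
        (Subgroup.centralizer ({y} : Set G)).subtype := by
  set Cx := Subgroup.centralizer ({x} : Set G) with hCx
  set Cy := Subgroup.centralizer ({y} : Set G) with hCy
  set M := (extendedTwoLayer ↥Cx).map Cx.subtype ⊓ Cy with hM
  have hMx : M ≤ Cx := inf_le_left.trans (Subgroup.map_subtype_le _)
  have hMy : M ≤ Cy := inf_le_right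
  have hxy' : x ∈ Cy := Subgroup.mem_centralizer_singleton_iff.mpr hxy
  set R := Subgroup.zpowers (⟨x, hxy'⟩ : ↥Cy) with hRdef
  have hR : IsPGroup 2 ↥R := IsPGroup.of_card (n := 1) (by
    rw [Nat.card_zpowers, Subgroup.orderOf_mk, hx, pow_one])
  have hMC : M.subgroupOf Cy ≤ Subgroup.centralizer (R : Set ↥Cy) := by
    intro m hm r hr
    obtain ⟨n, rfl⟩ := hr
    refine ((?_ : Commute (⟨x, hxy'⟩ : ↥Cy) m).zpow_left n).eq
    exact Subtype.ext (Subgroup.mem_centralizer_singleton_iff.mp (hMx hm)).symm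
  have hn : Subgroup.centralizer (R : Set ↥Cy) ≤ Subgroup.normalizer (M.subgroupOf Cy : Set ↥Cy) := by
    intro g hg
    have hgx : (g : G) ∈ Cx := Subgroup.mem_centralizer_singleton_iff.mpr
      (congrArg Subtype.val (hg _ (Subgroup.mem_zpowers _))).symm
    haveI := Balance.extendedTwoLayer_normal' (G := ↥Cx)
    have key : ∀ z : G, z ∈ Cy → z ∈ Cx → ∀ m ∈ M, z * m * z⁻¹ ∈ M := by
      intro z hzy hzx m hm
      refine ⟨?_, Cy.mul_mem (Cy.mul_mem hzy hm.2) (Cy.inv_mem hzy)⟩
      obtain ⟨m', hm', rfl⟩ := hm.1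
      exact ⟨⟨z, hzx⟩ * m' * ⟨z, hzx⟩⁻¹,
        (inferInstance : (extendedTwoLayer ↥Cx).Normal).conj_mem m' hm' _, rfl⟩
    refine Subgroup.mem_normalizer_iff.mpr fun m => ⟨fun hm => key g g.2 hgx _ hm, fun hm => ?_⟩
    have := key (g : G)⁻¹ (Cy.inv_mem g.2) (Cx.inv_mem hgx) _ (Subgroup.mem_subgroupOf.mp hm)
    rw [Subgroup.mem_subgroupOf]
    simpa [mul_assoc] using this
  refine le_trans ?_ (Subgroup.map_mono (f := Cy.subtype) (extendedTwoLayer_le_of_normal hR hMC hn))
  rintro _ ⟨m, hm, rfl⟩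
  refine ⟨⟨(m : G), hMy m.2⟩, ⟨(Subgroup.subgroupOfEquivOfLe hMy).symm m,
    map_extendedTwoLayer (Subgroup.subgroupOfEquivOfLe hMy).symm ⟨m, hm, rfl⟩, rfl⟩, rfl⟩

end CfsgLib.LBalance
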